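import Mathlib
import Cfsg.Prelude.Def_PLocal
import Cfsg.Prelude.Def_ConjugacyFunctors
import Cfsg.Agent.PLocal.QdSection
import Cfsg.Agent.H96.QdTI
import Cfsg.Agent.Lib.GoldschmidtFusion

/-!
# No set of characteristic functors controls strong fusion in `Qd(p)`

`exists_sylow_iso`: a Sylow `p`-subgroup of `X ≃ Qd(p)` corresponds to the upper unitriangular group `T₀`.
`structure_of_char`: for `T` Sylow in `X ≃ Qd(p)` there are `Z ≤ T`, `z ∈ Z`, `h` with `h z h⁻¹ ∈ T ∖ Z` and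
`N(W) ≤ N(Z)` for every nontrivial characteristic subgroup `W` of `T`.
`not_family`: no set of functors with nontrivial characteristic values controls strong fusion in `X`.
-/

set_option autoImplicit false

namespace Cfsg.Agent.H40.QdNoControl

open Cfsg Subgroup
open Cfsg.Agent.PLocal.QdSection
open scoped commutatorElement

variable {p : ℕ}

/-- the entries of a member of `Qd(p)` -/
abbrev ent (M : ↥(Cfsg.qd p)) (i j : Fin 3) : ZMod p :=
  ((M : Matrix.SpecialLinearGroup (Fin 3) (ZMod p)) : Matrix (Fin 3) (Fin 3) (ZMod p)) i j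

theorem ent_row (M : ↥(Cfsg.qd p)) : ent M 2 0 = 0 ∧ ent M 2 1 = 0 ∧ ent M 2 2 = 1 := by
  obtain ⟨v, A, h⟩ := H96.QdTI.row_of_mem_qd M.2
  unfold ent
  rw [h, Matrix.SpecialLinearGroup.coe_mul, transl_apply, PLocal.QdSection.diag_apply]
  refine ⟨?_, ?_, ?_⟩ <;> simp [Matrix.mul_apply, Fin.sum_univ_three]

theorem ent_mul (M N : ↥(Cfsg.qd p)) (i j : Fin 3) :
    ent (M * N) i j = ent M i 0 * ent N 0 j + ent M i 1 * ent N 1 j + ent M i 2 * ent N 2 j := by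
  change (((M : Matrix.SpecialLinearGroup (Fin 3) (ZMod p)) *
    (N : Matrix.SpecialLinearGroup (Fin 3) (ZMod p)) : Matrix.SpecialLinearGroup (Fin 3) (ZMod p)) :
    Matrix (Fin 3) (Fin 3) (ZMod p)) i j = _
  rw [Matrix.SpecialLinearGroup.coe_mul, Matrix.mul_apply, Fin.sum_univ_three]

theorem ent_one (i j : Fin 3) : ent (1 : ↥(Cfsg.qd p)) i j = if i = j then 1 else 0 := by
  change ((1 : Matrix.SpecialLinearGroup (Fin 3) (ZMod p)) : Matrix (Fin 3) (Fin 3) (ZMod p)) i j = _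
  rw [Matrix.SpecialLinearGroup.coe_one, Matrix.one_apply]

theorem ent_det (M : ↥(Cfsg.qd p)) : ent M 0 0 * ent M 1 1 - ent M 0 1 * ent M 1 0 = 1 := by
  have h := (M : Matrix.SpecialLinearGroup (Fin 3) (ZMod p)).det_coe
  rw [Matrix.det_fin_three] at h
  obtain ⟨h0, h1, h2⟩ := ent_row M
  unfold ent at h0 h1 h2 ⊢
  rw [h0, h1, h2] at h
  linear_combination h

theorem ent_ext {M N : ↥(Cfsg.qd p)} (h00 : ent M 0 0 = ent N 0 0) (h01 : ent M 0 1 = ent N 0 1)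
    (h02 : ent M 0 2 = ent N 0 2) (h10 : ent M 1 0 = ent N 1 0) (h11 : ent M 1 1 = ent N 1 1)
    (h12 : ent M 1 2 = ent N 1 2) : M = N := by
  obtain ⟨a0, a1, a2⟩ := ent_row M
  obtain ⟨b0, b1, b2⟩ := ent_row N
  apply Subtype.ext
  apply Subtype.ext
  ext i j
  fin_cases i <;> fin_cases j
  · exact h00
  · exact h01
  · exact h02
  · exact h10
  · exact h11
  · exact h12
  · exact a0.trans b0.symm
  · exact a1.trans b1.symm
  · exact a2.trans b2.symm

/-- the unitriangular elements -/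
def u (b x y : ZMod p) : ↥(Cfsg.qd p) :=
  ⟨⟨!![1, b, x; 0, 1, y; 0, 0, 1], by simp [Matrix.det_fin_three]⟩,
    Subgroup.subset_closure ⟨by simp, by simp, by simp⟩⟩

theorem u_00 (b x y : ZMod p) : ent (u b x y) 0 0 = 1 := rfl
theorem u_01 (b x y : ZMod p) : ent (u b x y) 0 1 = b := rfl
theorem u_02 (b x y : ZMod p) : ent (u b x y) 0 2 = x := rfl
theorem u_10 (b x y : ZMod p) : ent (u b x y) 1 0 = 0 := rfl
theorem u_11 (b x y : ZMod p) : ent (u b x y) 1 1 = 1 := rfl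
theorem u_12 (b x y : ZMod p) : ent (u b x y) 1 2 = y := rfl
theorem u_20 (b x y : ZMod p) : ent (u b x y) 2 0 = 0 := rfl
theorem u_21 (b x y : ZMod p) : ent (u b x y) 2 1 = 0 := rfl
theorem u_22 (b x y : ZMod p) : ent (u b x y) 2 2 = 1 := rfl

theorem u_mul (b x y b' x' y' : ZMod p) : u b x y * u b' x' y' = u (b + b') (x + x' + b * y') (y + y') := by
  apply ent_ext <;> rw [ent_mul] <;>
    simp only [u_00, u_01, u_02, u_10, u_11, u_12, u_20, u_21, u_22] <;> ring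

theorem u_zero : u (0 : ZMod p) 0 0 = 1 := by
  apply ent_ext <;> rw [ent_one] <;> simp [u_00, u_01, u_02, u_10, u_11, u_12]

theorem u_inv (b x y : ZMod p) : (u b x y)⁻¹ = u (-b) (b * y - x) (-y) := by
  rw [inv_eq_iff_mul_eq_one, u_mul, ← u_zero]
  congr 1 <;> ring

theorem u_injective {b x y b' x' y' : ZMod p} (h : u b x y = u b' x' y') : b = b' ∧ x = x' ∧ y = y' := by
  refine ⟨?_, ?_, ?_⟩
  · rw [← u_01 b x y, h, u_01]
  · rw [← u_02 b x y, h, u_02]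
  · rw [← u_12 b x y, h, u_12]

/-- the unitriangular group -/
def T₀ (p : ℕ) : Subgroup ↥(Cfsg.qd p) where
  carrier := {M | ∃ b x y, M = u b x y}
  mul_mem' := by
    rintro _ _ ⟨b, x, y, rfl⟩ ⟨b', x', y', rfl⟩
    exact ⟨_, _, _, u_mul _ _ _ _ _ _⟩
  one_mem' := ⟨0, 0, 0, u_zero.symm⟩
  inv_mem' := by
    rintro _ ⟨b, x, y, rfl⟩
    exact ⟨_, _, _, u_inv _ _ _⟩

theorem mem_T₀ {M : ↥(Cfsg.qd p)} : M ∈ T₀ p ↔ ∃ b x y, M = u b x y := Iff.rfl

theorem u_mem_T₀ (b x y : ZMod p) : u b x y ∈ T₀ p := ⟨_, _, _, rfl⟩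

theorem mem_T₀_iff {M : ↥(Cfsg.qd p)} : M ∈ T₀ p ↔ ent M 0 0 = 1 ∧ ent M 1 0 = 0 ∧ ent M 1 1 = 1 := by
  constructor
  · rintro ⟨b, x, y, rfl⟩
    exact ⟨rfl, rfl, rfl⟩
  · rintro ⟨h0, h1, h2⟩
    exact ⟨ent M 0 1, ent M 0 2, ent M 1 2, ent_ext h0 rfl rfl h1 h2 rfl⟩

/-- the centre of the unitriangular group -/
def Z₀ (p : ℕ) : Subgroup ↥(Cfsg.qd p) where
  carrier := {M | ∃ x, M = u 0 x 0}
  mul_mem' := by
    rintro _ _ ⟨x, rfl⟩ ⟨x', rfl⟩
    refine ⟨x + x', ?_⟩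
    rw [u_mul]
    congr 1 <;> ring
  one_mem' := ⟨0, u_zero.symm⟩
  inv_mem' := by
    rintro _ ⟨x, rfl⟩
    refine ⟨-x, ?_⟩
    rw [u_inv]
    congr 1 <;> ring

theorem mem_Z₀ {M : ↥(Cfsg.qd p)} : M ∈ Z₀ p ↔ ∃ x, M = u 0 x 0 := Iff.rfl

theorem Z₀_le : Z₀ p ≤ T₀ p := by
  rintro _ ⟨x, rfl⟩
  exact u_mem_T₀ _ _ _

/-- the automorphism of the unitriangular group exchanging the two elementary abelian subgroups -/
def sigma (p : ℕ) : MulAut (T₀ p) where
  toFun M := ⟨u (-(ent M.1 1 2)) (ent M.1 0 1 * ent M.1 1 2 - ent M.1 0 2) (-(ent M.1 0 1)), u_mem_T₀ _ _ _⟩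
  invFun M := ⟨u (-(ent M.1 1 2)) (ent M.1 0 1 * ent M.1 1 2 - ent M.1 0 2) (-(ent M.1 0 1)), u_mem_T₀ _ _ _⟩
  left_inv := by
    rintro ⟨_, b, x, y, rfl⟩
    apply Subtype.ext
    simp only [u_01, u_02, u_12]
    congr 1 <;> ring
  right_inv := by
    rintro ⟨_, b, x, y, rfl⟩
    apply Subtype.ext
    simp only [u_01, u_02, u_12]
    congr 1 <;> ring
  map_mul' := by
    rintro ⟨_, b, x, y, rfl⟩ ⟨_, b', x', y', rfl⟩
    apply Subtype.ext
    change u (-(ent (u b x y * u b' x' y') 1 2)) (ent (u b x y * u b' x' y') 0 1 *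
      ent (u b x y * u b' x' y') 1 2 - ent (u b x y * u b' x' y') 0 2) (-(ent (u b x y * u b' x' y') 0 1)) =
      u (-y) (b * y - x) (-b) * u (-y') (b' * y' - x') (-b')
    rw [u_mul, u_mul, u_01, u_02, u_12]
    congr 1 <;> ring

theorem sigma_u (b x y : ZMod p) (h : u b x y ∈ T₀ p) :
    ((sigma p ⟨u b x y, h⟩ : T₀ p) : ↥(Cfsg.qd p)) = u (-y) (b * y - x) (-b) := rfl

/-- powers of a central element -/
theorem u_pow (x : ZMod p) (k : ℕ) : u 0 x 0 ^ k = u 0 ((k : ZMod p) * x) 0 := by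
  induction k with
  | zero => rw [pow_zero, ← u_zero]; congr 1; simp
  | succ k ih =>
    rw [pow_succ, ih, u_mul]
    congr 1
    · ring
    · push_cast; ring
    · ring

theorem u_pow' (y : ZMod p) (k : ℕ) : u 0 0 y ^ k = u 0 0 ((k : ZMod p) * y) := by
  induction k with
  | zero => rw [pow_zero, ← u_zero]; congr 1; simp
  | succ k ih =>
    rw [pow_succ, ih, u_mul]
    congr 1
    · ring
    · ring
    · push_cast; ring

theorem u_mem_of_ne [Fact p.Prime] {W : Subgroup ↥(Cfsg.qd p)} {c : ZMod p} (hc : c ≠ 0) (h : u 0 c 0 ∈ W)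
    (x : ZMod p) : u 0 x 0 ∈ W := by
  have h1 := W.pow_mem h (x * c⁻¹).val
  rw [u_pow, ZMod.natCast_zmod_val, mul_assoc, inv_mul_cancel₀ hc, mul_one] at h1
  exact h1

theorem u_mem_of_ne' [Fact p.Prime] {W : Subgroup ↥(Cfsg.qd p)} {c : ZMod p} (hc : c ≠ 0) (h : u 0 0 c ∈ W)
    (x : ZMod p) : u 0 0 x ∈ W := by
  have h1 := W.pow_mem h (x * c⁻¹).val
  rw [u_pow', ZMod.natCast_zmod_val, mul_assoc, inv_mul_cancel₀ hc, mul_one] at h1
  exact h1

/-- a nontrivial subgroup of `T₀` normalized by `T₀` contains `Z₀` -/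
theorem Z₀_le_of_normal [Fact p.Prime] {W : Subgroup ↥(Cfsg.qd p)} (hW : W ≤ T₀ p) (hW1 : W ≠ ⊥)
    (hn : ∀ t ∈ T₀ p, ∀ w ∈ W, t * w * t⁻¹ ∈ W) : Z₀ p ≤ W := by
  obtain ⟨⟨w, hw⟩, hw1⟩ := Subgroup.ne_bot_iff_exists_ne_one.mp hW1
  have hw1' : w ≠ 1 := fun h => hw1 (Subtype.ext h)
  obtain ⟨b, x, y, rfl⟩ := hW hw
  rintro _ ⟨t, rfl⟩
  by_cases hb : b = 0
  · by_cases hy : y = 0
    · subst hb hy
      have hx : x ≠ 0 := by
        rintro rfl
        exact hw1' u_zero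
      exact u_mem_of_ne hx hw t
    · have h1 := mul_mem (hn (u 1 0 0) (u_mem_T₀ _ _ _) _ hw) (inv_mem hw)
      rw [u_inv, u_inv, u_mul, u_mul, u_mul] at h1
      refine u_mem_of_ne hy ?_ t
      convert h1 using 1
      congr 1 <;> ring
  · have h1 := mul_mem (hn (u 0 0 1) (u_mem_T₀ _ _ _) _ hw) (inv_mem hw)
    rw [u_inv, u_inv, u_mul, u_mul, u_mul] at h1
    refine u_mem_of_ne (neg_ne_zero.mpr hb) ?_ t
    convert h1 using 1
    congr 1 <;> ring

theorem conj_Z₀ (M : ↥(Cfsg.qd p)) (t : ZMod p) :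
    M * u 0 t 0 * M⁻¹ = u 0 (t * ent M 0 0) (t * ent M 1 0) := by
  rw [mul_inv_eq_iff_eq_mul]
  obtain ⟨h0, h1, h2⟩ := ent_row M
  apply ent_ext <;> rw [ent_mul, ent_mul] <;>
    simp only [u_00, u_01, u_02, u_10, u_11, u_12, u_20, u_21, u_22, h0, h1, h2] <;> ring

theorem normalizes_T₀ {M : ↥(Cfsg.qd p)} (h : M * u 1 0 0 * M⁻¹ ∈ T₀ p) : ent M 1 0 = 0 := by
  obtain ⟨b, x, y, h⟩ := h
  rw [mul_inv_eq_iff_eq_mul] at h
  have h1 := congrArg (fun N => ent N 1 1) h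
  simp only [ent_mul, u_00, u_01, u_02, u_10, u_11, u_12, u_20, u_21, u_22] at h1
  obtain ⟨a0, a1, a2⟩ := ent_row M
  rw [a1] at h1
  linear_combination h1

/-- **Normalizers of characteristic subgroups of `T₀`** -/
theorem normalizer_le [Fact p.Prime] {W : Subgroup ↥(Cfsg.qd p)} (hW : W ≤ T₀ p) (hW1 : W ≠ ⊥)
    (hc : (W.subgroupOf (T₀ p)).Characteristic) : normalizer (W : Set ↥(Cfsg.qd p)) ≤
      normalizer (Z₀ p : Set ↥(Cfsg.qd p)) := by
  have hn : ∀ t ∈ T₀ p, ∀ w ∈ W, t * w * t⁻¹ ∈ W := by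
    intro t ht w hw
    have h1 : (W.subgroupOf (T₀ p)).Normal := inferInstance
    exact h1.conj_mem ⟨w, hW hw⟩ hw ⟨t, ht⟩
  have hZ := Z₀_le_of_normal hW hW1 hn
  have hσ : ∀ w (hw : w ∈ W), ((sigma p ⟨w, hW hw⟩ : T₀ p) : ↥(Cfsg.qd p)) ∈ W := by
    intro w hw
    have h1 := hc.fixed (sigma p)
    have h2 : (⟨w, hW hw⟩ : T₀ p) ∈ W.subgroupOf (T₀ p) := hw
    rw [← h1] at h2
    exact h2
  have key : ∀ M ∈ normalizer (W : Set ↥(Cfsg.qd p)), ent M 1 0 = 0 := by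
    intro M hM
    by_contra hne
    have h1 : u 0 (ent M 0 0) (ent M 1 0) ∈ W := by
      have := (mem_normalizer_iff.mp hM (u 0 1 0)).mp (hZ ⟨1, rfl⟩)
      rw [conj_Z₀, one_mul, one_mul] at this
      exact this
    have h2 : u 0 0 (ent M 1 0) ∈ W := by
      have := mul_mem (hZ ⟨-(ent M 0 0), rfl⟩) h1
      rw [u_mul] at this
      convert this using 1
      congr 1 <;> ring
    have h3 : ∀ y, u 0 0 y ∈ W := u_mem_of_ne' hne h2
    have h4 : ∀ b, u b 0 0 ∈ W := by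
      intro b
      have := hσ _ (h3 (-b))
      rw [sigma_u] at this
      convert this using 1
      congr 1 <;> ring
    have h5 : T₀ p ≤ W := by
      rintro _ ⟨b, x, y, rfl⟩
      have := mul_mem (mul_mem (h3 y) (h4 b)) (hZ ⟨x, rfl⟩)
      rw [u_mul, u_mul] at this
      convert this using 1
      congr 1 <;> ring
    apply hne
    apply normalizes_T₀
    exact hW ((mem_normalizer_iff.mp hM _).mp (h5 (u_mem_T₀ _ _ _)))
  intro M hM
  have key2 : ∀ N ∈ normalizer (W : Set ↥(Cfsg.qd p)), ∀ z ∈ Z₀ p, N * z * N⁻¹ ∈ Z₀ p := by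
    rintro N hN _ ⟨t, rfl⟩
    rw [conj_Z₀, key N hN, mul_zero]
    exact ⟨_, rfl⟩
  rw [mem_normalizer_iff]
  intro h
  refine ⟨key2 M hM h, fun hh => ?_⟩
  have h2 := key2 M⁻¹ (inv_mem hM) _ hh
  have h3 : M⁻¹ * (M * h * M⁻¹) * M⁻¹⁻¹ = h := by group
  rwa [h3] at h2

/-- a rotation moving the centre of `T₀` -/
def rot (p : ℕ) : ↥(Cfsg.qd p) :=
  ⟨⟨!![0, -1, 0; 1, 0, 0; 0, 0, 1], by simp [Matrix.det_fin_three]⟩,
    Subgroup.subset_closure ⟨by simp, by simp, by simp⟩⟩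

theorem rot_conj (p : ℕ) : rot p * u 0 1 0 * (rot p)⁻¹ = u 0 0 1 := by
  rw [conj_Z₀]
  congr 1
  · change (1 : ZMod p) * 0 = 0
    ring
  · change (1 : ZMod p) * 1 = 1
    ring

theorem rot_not_mem [Fact p.Prime] : u (0 : ZMod p) 0 1 ∉ Z₀ p := by
  rintro ⟨x, hx⟩
  exact one_ne_zero (u_injective hx).2.2

/-- `T₀` is a `p`-group -/
theorem T₀_pgroup [Fact p.Prime] : IsPGroup p (T₀ p) := by
  rintro ⟨_, b, x, y, rfl⟩
  refine ⟨2, Subtype.ext ?_⟩
  change u b x y ^ (p ^ 2) = 1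
  have h1 : ∀ k : ℕ, ∃ x', u b x y ^ k = u ((k : ZMod p) * b) x' ((k : ZMod p) * y) := by
    intro k
    induction k with
    | zero => exact ⟨0, by rw [pow_zero, ← u_zero]; congr 1 <;> simp⟩
    | succ k ih =>
      obtain ⟨x', hx'⟩ := ih
      refine ⟨x' + x + (k : ZMod p) * b * y, ?_⟩
      rw [pow_succ, hx', u_mul]
      congr 1
      · push_cast; ring
      · push_cast; ring
  obtain ⟨x', hx'⟩ := h1 p
  rw [pow_two, pow_mul, hx']
  have h2 : u ((p : ZMod p) * b) x' ((p : ZMod p) * y) = u 0 x' 0 := by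
    congr 1 <;> simp
  rw [h2, u_pow, ← u_zero]
  congr 1
  simp

theorem triangular_pow (M : ↥(Cfsg.qd p)) (h : ent M 1 0 = 0) (k : ℕ) :
    ent (M ^ k) 1 0 = 0 ∧ ent (M ^ k) 0 0 = ent M 0 0 ^ k := by
  induction k with
  | zero => rw [pow_zero, pow_zero, ent_one, ent_one]; simp
  | succ k ih =>
    obtain ⟨h0, h1, h2⟩ := ent_row M
    rw [pow_succ, ent_mul, ent_mul, ih.1, ih.2, h, h0, pow_succ]
    constructor <;> ring

/-- `T₀` is a Sylow `p`-subgroup -/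
theorem T₀_maximal [Fact p.Prime] {Q : Subgroup ↥(Cfsg.qd p)} (hQ : IsPGroup p Q) (hle : T₀ p ≤ Q) :
    Q = T₀ p := by
  rcases eq_or_lt_of_le hle with h | h
  · exact h.symm
  exfalso
  have h1 := Lib.GoldschmidtFusion.lt_inf_normalizer hQ h
  obtain ⟨M, hM, hMT⟩ := SetLike.exists_of_lt h1
  apply hMT
  have h2 : ent M 1 0 = 0 := normalizes_T₀ ((mem_normalizer_iff.mp hM.2 _).mp (u_mem_T₀ _ _ _))
  obtain ⟨k, hk⟩ := hQ ⟨M, hM.1⟩
  have hk' : M ^ p ^ k = 1 := congrArg Subtype.val hk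
  have h3 := (triangular_pow M h2 (p ^ k)).2
  rw [hk', ent_one, ZMod.pow_card_pow] at h3
  have h00 : ent M 0 0 = 1 := by simpa using h3.symm
  have h4 := ent_det M
  rw [h00, h2] at h4
  exact mem_T₀_iff.mpr ⟨h00, h2, by linear_combination h4⟩

/-- the Sylow `p`-subgroup `T₀` -/
def sylT₀ (p : ℕ) [Fact p.Prime] : Sylow p ↥(Cfsg.qd p) :=
  { T₀ p with
    isPGroup' := T₀_pgroup
    is_maximal' := fun hQ hle => T₀_maximal hQ hle }

theorem coe_sylT₀ [Fact p.Prime] : ((sylT₀ p : Sylow p ↥(Cfsg.qd p)) : Subgroup ↥(Cfsg.qd p)) = T₀ p := rfl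

/-- A Sylow `p`-subgroup of a group isomorphic to `Qd(p)` can be moved onto `T₀`. -/
theorem exists_sylow_iso [Fact p.Prime] {X : Type*} [Group X] (e : X ≃* ↥(Cfsg.qd p)) (T : Sylow p X) :
    ∃ f : X ≃* ↥(Cfsg.qd p), (T : Subgroup X).map f.toMonoidHom = T₀ p := by
  have : Finite ↥(Cfsg.qd p) := inferInstance
  have : Finite X := Finite.of_equiv _ e.symm.toEquiv
  let S : Sylow p ↥(Cfsg.qd p) := T.mapSurjective (f := e.toMonoidHom) e.surjective
  have hS : (S : Subgroup ↥(Cfsg.qd p)) = (T : Subgroup X).map e.toMonoidHom := rfl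
  obtain ⟨g, hg⟩ := MulAction.exists_smul_eq ↥(Cfsg.qd p) S (sylT₀ p)
  refine ⟨e.trans (MulAut.conj g), ?_⟩
  have h1 : ((g • S : Sylow p ↥(Cfsg.qd p)) : Subgroup ↥(Cfsg.qd p)) = T₀ p := by rw [hg]; rfl
  rw [← h1, Sylow.smul_def, Sylow.pointwise_smul_def, hS]
  change _ = ((T : Subgroup X).map e.toMonoidHom).map (MulAut.conj g).toMonoidHom
  rw [Subgroup.map_map]
  rfl

/-- characteristic subgroups are transported by isomorphisms -/
theorem characteristic_map {X Y : Type*} [Group X] [Group Y] (f : X ≃* Y) {T W : Subgroup X}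
    (hc : (W.subgroupOf T).Characteristic) :
    ((W.map f.toMonoidHom).subgroupOf (T.map f.toMonoidHom)).Characteristic := by
  rw [Subgroup.characteristic_iff_map_le]
  intro φ
  let E : ↥T ≃* ↥(T.map f.toMonoidHom) := f.subgroupMap T
  have hE : ∀ t : T, ((E t : ↥(T.map f.toMonoidHom)) : Y) = f t := fun t => rfl
  let ψ : MulAut T := (E.trans φ).trans E.symm
  rintro _ ⟨⟨_, ⟨t, ht, rfl⟩⟩, hy, rfl⟩
  have h1 : t ∈ W := by
    obtain ⟨w, hw, hwt⟩ := hy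
    have : w = t := f.injective hwt
    exact this ▸ hw
  have h2 : ψ ⟨t, ht⟩ ∈ W.subgroupOf T := by
    have h3 := (Subgroup.characteristic_iff_map_le.mp hc) ψ
    exact h3 ⟨⟨t, ht⟩, h1, rfl⟩
  have h4 : E (ψ ⟨t, ht⟩) = φ ⟨f.toMonoidHom t, ⟨t, ht, rfl⟩⟩ := by
    change E (E.symm (φ (E ⟨t, ht⟩))) = _
    rw [MulEquiv.apply_symm_apply]
    rfl
  change φ ⟨f.toMonoidHom t, _⟩ ∈ _
  rw [← h4]
  exact ⟨_, h2, rfl⟩

/-- **Characteristic subgroups of a Sylow `p`-subgroup of `Qd(p)`.** -/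
theorem structure_of_char [Fact p.Prime] {X : Type*} [Group X] (e : X ≃* ↥(Cfsg.qd p)) (T : Sylow p X) :
    ∃ Z : Subgroup X, Z ≤ T ∧ ∃ z ∈ Z, ∃ h : X, h * z * h⁻¹ ∈ (T : Subgroup X) ∧ h * z * h⁻¹ ∉ Z ∧
      ∀ W : Subgroup X, W ≤ T → W ≠ ⊥ → (W.subgroupOf (T : Subgroup X)).Characteristic →
        normalizer (W : Set X) ≤ normalizer (Z : Set X) := by
  obtain ⟨f, hf⟩ := exists_sylow_iso e T
  have hT : (T : Subgroup X) = (T₀ p).comap f.toMonoidHom := by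
    rw [← hf, Subgroup.comap_map_eq_self_of_injective f.injective]
  refine ⟨(Z₀ p).comap f.toMonoidHom, ?_, f.symm (u 0 1 0), ?_, f.symm (rot p), ?_, ?_, ?_⟩
  · rw [hT]; exact Subgroup.comap_mono Z₀_le
  · rw [mem_comap]
    change f (f.symm _) ∈ _
    rw [MulEquiv.apply_symm_apply]
    exact ⟨1, rfl⟩
  · rw [hT, mem_comap]
    change f _ ∈ _
    rw [map_mul, map_mul, map_inv, MulEquiv.apply_symm_apply, MulEquiv.apply_symm_apply, rot_conj]
    exact u_mem_T₀ _ _ _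
  · rw [mem_comap]
    change f _ ∉ _
    rw [map_mul, map_mul, map_inv, MulEquiv.apply_symm_apply, MulEquiv.apply_symm_apply, rot_conj]
    exact rot_not_mem
  · intro W hWT hW1 hc
    have hc' := characteristic_map f hc
    rw [hf] at hc'
    have h1 : W.map f.toMonoidHom ≤ T₀ p := by rw [← hf]; exact Subgroup.map_mono hWT
    have h2 : W.map f.toMonoidHom ≠ ⊥ := by
      intro h0
      exact hW1 ((Subgroup.map_eq_bot_iff_of_injective W f.injective).mp h0)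
    have h3 := normalizer_le h1 h2 hc'
    intro x hx
    have h4 : f x ∈ normalizer ((W.map f.toMonoidHom : Subgroup ↥(Cfsg.qd p)) : Set ↥(Cfsg.qd p)) :=
      Subgroup.le_normalizer_map f.toMonoidHom ⟨x, hx, rfl⟩
    have h5 := h3 h4
    rw [mem_normalizer_iff] at h5 ⊢
    intro y
    have h6 := h5 (f y)
    rw [mem_comap, mem_comap]
    change f y ∈ _ ↔ f (x * y * x⁻¹) ∈ _
    rw [map_mul, map_mul, map_inv]
    exact h6

/-- **No set of functors with nontrivial characteristic values controls strong fusion in `Qd(p)`.** -/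
theorem not_family [Fact p.Prime] {X : Type*} [Group X] [Finite X] (e : X ≃* ↥(Cfsg.qd p))
    (𝓦 : Set (Subgroup X → Subgroup X))
    (h𝓦 : ∀ W ∈ 𝓦, ∀ T : Subgroup X, IsPGroup p T → T ≠ ⊥ →
      W T ≤ T ∧ W T ≠ ⊥ ∧ ((W T).subgroupOf T).Characteristic) :
    ¬ FamilyControlsStrongFusionIn p 𝓦 ⊤ := by
  rintro ⟨T, -, hT, hidx, hctrl⟩
  rw [Subgroup.relIndex_top_right] at hidx
  obtain ⟨S, hS⟩ := hT.exists_le_sylow
  have hTS : T = (S : Subgroup X) := by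
    refine le_antisymm hS ?_
    by_contra hlt
    obtain ⟨n, hn⟩ := IsPGroup.iff_card.mp S.isPGroup'
    have h1 : T.relIndex (S : Subgroup X) ∣ T.index := Subgroup.relIndex_dvd_index_of_le hS
    have h2 : T.relIndex (S : Subgroup X) ∣ Nat.card S := Subgroup.relIndex_dvd_card _ _
    rw [hn, Nat.dvd_prime_pow Fact.out] at h2
    obtain ⟨m, -, hm⟩ := h2
    rcases Nat.eq_zero_or_pos m with rfl | hm0
    · rw [pow_zero, Subgroup.relIndex_eq_one] at hm
      exact hlt hm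
    · exact hidx ((dvd_pow_self p hm0.ne').trans (hm ▸ h1))
  obtain ⟨Z, hZT, z, hz, h, hhT, hhZ, hN⟩ := structure_of_char e S
  have hzT : z ∈ T := by rw [hTS]; exact hZT hz
  have hT1 : T ≠ ⊥ := by
    rintro rfl
    rw [mem_bot] at hzT
    subst hzT
    apply hhZ
    simp only [mul_one, mul_inv_cancel]
    exact one_mem _
  obtain ⟨n, c, hc0, hc1, hc2, hc3⟩ := hctrl {z} h (mem_top h) (by simpa using hzT) (by
    rintro _ ⟨y, hy, rfl⟩
    rw [Set.mem_singleton_iff] at hy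
    subst hy
    rw [hTS]
    exact hhT)
  have key : ∀ i : Fin (n + 1), c i ∈ normalizer (Z : Set X) := by
    intro i
    induction i using Fin.induction with
    | zero => rw [hc0]; exact one_mem _
    | succ i ih =>
      obtain ⟨W, hW, hi⟩ := hc1 i
      obtain ⟨a1, a2, a3⟩ := h𝓦 W hW T hT hT1
      rw [hTS] at a1 a2 a3 hi
      have h1 := hN _ a1 a2 a3 hi.2
      have h2 := mul_mem h1 ih
      simpa using h2
  apply hhZ
  rw [← hc3 z rfl]
  exact (mem_normalizer_iff.mp (key (Fin.last n)) z).mp hz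

universe v

/-- **No set of isomorphism-invariant `p`-group functors controls strong fusion in `Qd(p)`.** -/
theorem not_family_charP [Fact p.Prime] {X : Type v} [Group X] [Finite X] (e : X ≃* ↥(Cfsg.qd p))
    (𝓦 : Set (∀ (Q : Type v) [Group Q], Subgroup Q)) (h𝓦 : ∀ W ∈ 𝓦, IsCharPFunctor.{v} p W) :
    ¬ FamilyControlsStrongFusionIn p ((fun W => inducedFunctor (G := X) W) '' 𝓦) ⊤ := by
  refine not_family e _ ?_
  rintro _ ⟨W, hW, rfl⟩ T hT hT1
  obtain ⟨hW1, hW2⟩ := h𝓦 W hW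
  have hsub : (inducedFunctor (G := X) W T).subgroupOf T = W ↥T := by
    unfold inducedFunctor
    exact Subgroup.comap_map_eq_self_of_injective T.subtype_injective _
  refine ⟨Subgroup.map_subtype_le _, ?_, ?_⟩
  · intro h0
    have : Nontrivial ↥T := (Subgroup.nontrivial_iff_ne_bot T).mpr hT1
    exact hW1 ↥T hT this ((Subgroup.map_eq_bot_iff_of_injective _ T.subtype_injective).mp h0)
  · change ((inducedFunctor (G := X) W T).subgroupOf T).Characteristic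
    rw [hsub, Subgroup.characteristic_iff_map_eq]
    intro φ
    exact hW2 ↥T ↥T hT φ

end Cfsg.Agent.H40.QdNoControl
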