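import Mathlib
import Cfsg.Prelude.Def_Transfer
import Cfsg.Prelude.Def_Local
import Cfsg.Agent.Lib.Cores
import Cfsg.Agent.PLocal.ThompsonJ
import Cfsg.Agent.PLocal.PConstrained
import Cfsg.Agent.PLocal.ZJ
import Cfsg.Agent.PLocal.S4FreeNoS3
import Cfsg.Agent.PLocal.S4FreeSection
import Cfsg.Agent.PLocal.S4FreeClosure
import Cfsg.Agent.H41.ClassTwoFactor

/-!
# `S₄`-free groups of characteristic 2: `G = C_G(Z(S)) N_G(J_e(S))`

`factor`: if `C_G(O_2(G)) ≤ O_2(G)` and `G` has no section `S₄` then `G = C_G(Z(S)) N_G(J_e(S))` for a Sylow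
`2`-subgroup `S`, where `J_e(S)` is generated by the elementary abelian subgroups of `S` of largest order.
Proof: the closure theorem applied to `⟨Z^G⟩ / (⟨Z^G⟩ ∩ Z(G))` for `Z ≤ Z(S)` with `z² ∈ Z(G)` for all `z ∈ Z`
(`max_centralizes`), and induction along `Ω_i(Z(S))`.
-/

set_option autoImplicit false

universe u

namespace Cfsg.Agent.H40.SFourFactor

open Cfsg Subgroup
open Cfsg.Agent.PLocal.S4FreeClosureBasic Cfsg.Agent.PLocal.S4FreeClosure
open Cfsg.Agent.PLocal.SFourBasic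
open Cfsg.Agent.H41.ClassTwoFactor (omega mem_omega omega_normal eq_one_of_commute)

variable {G : Type u} [Group G] [Finite G]

/-- If `Z` is centralized by the Sylow `2`-subgroup `S`, `N` is a normal subgroup whose elements of odd order
centralize `⟨Z^G⟩`, then `N ∩ S` centralizes `⟨Z^G⟩`. -/
theorem inf_sylow_centralizes (S : Sylow 2 G) (Z : Subgroup G) (hZc : ∀ z ∈ Z, ∀ s ∈ S, z * s = s * z)
    (N : Subgroup G) (hN : N.Normal)
    (hodd : ∀ g ∈ N, ∀ m : ℕ, Odd m → g ^ m = 1 → g ∈ centralizer (normalClosure (Z : Set G) : Set G)) :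
    N ⊓ (S : Subgroup G) ≤ centralizer (normalClosure (Z : Set G) : Set G) := by
  have : Fact (Nat.Prime 2) := ⟨Nat.prime_two⟩
  set W := normalClosure (Z : Set G) with hW
  have hWn : W.Normal := normalClosure_normal
  set C := centralizer (W : Set G) with hC
  have hCn : C.Normal := inferInstance
  have hpg : IsPGroup 2 (N ⧸ C.subgroupOf N) := by
    intro x
    obtain ⟨y, rfl⟩ := QuotientGroup.mk_surjective x
    obtain ⟨k, m, hm, hkm⟩ := Nat.exists_eq_two_pow_mul_odd (orderOf_pos (y : G)).ne'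
    refine ⟨k, ?_⟩
    rw [← QuotientGroup.mk_pow, QuotientGroup.eq_one_iff, mem_subgroupOf]
    refine hodd _ (y ^ 2 ^ k).2 m hm ?_
    rw [Subgroup.coe_pow, ← pow_mul, ← hkm, pow_orderOf_eq_one]
  obtain ⟨k, hk⟩ := IsPGroup.iff_card.1 hpg
  have hfr := PLocal.ZJ.frattini_sup S C N hN (k := k) hk
  set R := N ⊓ (S : Subgroup G) with hR
  -- `R` centralizes `W`
  rw [Subgroup.le_centralizer_iff, hW]
  refine Subgroup.closure_le _ |>.2 ?_
  intro w hw
  obtain ⟨z, hz, hzw⟩ := Group.mem_conjugatesOfSet_iff.1 hw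
  obtain ⟨x, rfl⟩ := isConj_iff.1 hzw
  have hx : x ∈ C ⊔ normalizer (R : Set G) := by rw [hfr]; exact mem_top x
  obtain ⟨c, hc, n, hn, rfl⟩ := Subgroup.mem_sup_of_normal_left.1 hx
  have hcz : c * (n * z * n⁻¹) * c⁻¹ = n * z * n⁻¹ := by
    have h1 : n * z * n⁻¹ ∈ W := hWn.conj_mem z (subset_normalClosure hz) n
    rw [← mem_centralizer_iff.1 hc _ h1, mul_inv_cancel_right]
  have e : c * n * z * (c * n)⁻¹ = c * (n * z * n⁻¹) * c⁻¹ := by group
  rw [e, hcz]
  change n * z * n⁻¹ ∈ centralizer (R : Set G)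
  rw [mem_centralizer_iff]
  intro r hr
  have h2 : n⁻¹ * r * n ∈ R := by
    have := (mem_normalizer_iff.1 (inv_mem hn) r).1 hr
    rwa [inv_inv] at this
  have h3 := hZc z hz _ h2.2
  calc r * (n * z * n⁻¹) = n * ((n⁻¹ * r * n) * z) * n⁻¹ := by group
    _ = n * (z * (n⁻¹ * r * n)) * n⁻¹ := by rw [h3]
    _ = n * z * n⁻¹ * r := by group

/-- The main step: the elementary abelian subgroups of largest order of `S` centralize `⟨Z^G⟩`. -/
theorem max_centralizes
    (h4 : ¬ ∃ (K R : Subgroup G) (hR : (R.subgroupOf K).Normal),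
      Nonempty ((K ⧸ R.subgroupOf K) ≃* Equiv.Perm (Fin 4))) (S : Sylow 2 G)
    (hc : Subgroup.centralizer (pCore 2 G : Set G) ≤ pCore 2 G)
    (Z : Subgroup G) (hZS : Z ≤ (S : Subgroup G)) (hZc : ∀ z ∈ Z, ∀ s ∈ S, z * s = s * z)
    (hZ2 : ∀ z ∈ Z, ∀ g : G, z * z * g = g * (z * z))
    (A : Subgroup G) (hA : A ∈ maxElementaryAbelianSubgroups 2 G) (hAS : A ≤ (S : Subgroup G)) :
    A ≤ centralizer (normalClosure (Z : Set G) : Set G) := by
  classical
  have : Fact (Nat.Prime 2) := ⟨Nat.prime_two⟩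
  have hQn : (pCore 2 G).Normal := Lib.Cores.pCore_normal 2
  have hQS : pCore 2 G ≤ (S : Subgroup G) := Lib.Cores.pCore_le_sylow S
  have hQp : IsPGroup 2 (pCore 2 G) := Lib.Cores.pCore_isPGroup 2
  rw [PLocal.ThompsonJ.mem_maxElementaryAbelianSubgroups_iff] at hA
  obtain ⟨hAe, hAmax⟩ := hA
  obtain ⟨W, hW⟩ : ∃ W : Subgroup G, W = normalClosure (Z : Set G) := ⟨_, rfl⟩
  have hWn : W.Normal := by rw [hW]; exact normalClosure_normal
  have hZW : Z ≤ W := by rw [hW]; exact subset_normalClosure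
  have hZcQ : Z ≤ centralizer (pCore 2 G : Set G) := by
    intro z hz
    rw [mem_centralizer_iff]
    intro q hq
    exact (hZc z hz q (hQS hq)).symm
  have hWcQ : W ≤ centralizer (pCore 2 G : Set G) := by
    rw [hW]
    exact normalClosure_le_normal hZcQ
  have hWQ : W ≤ pCore 2 G := hWcQ.trans hc
  have hWab : ∀ x ∈ W, ∀ y ∈ W, x * y = y * x := fun x hx y hy =>
    (mem_centralizer_iff.1 (hWcQ hx) y (hWQ hy)).symm
  have hWp : IsPGroup 2 W := hQp.to_le hWQ
  -- squares are central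
  have hW2 : ∀ w ∈ W, w * w ∈ center G := by
    let P : Subgroup G :=
      { carrier := {w | w ∈ W ∧ w * w ∈ center G}
        mul_mem' := by
          rintro x y ⟨hx, hx2⟩ ⟨hy, hy2⟩
          refine ⟨W.mul_mem hx hy, ?_⟩
          have : x * y * (x * y) = (x * x) * (y * y) := by
            calc x * y * (x * y) = x * (y * x) * y := by group
              _ = x * (x * y) * y := by rw [hWab x hx y hy]
              _ = _ := by group
          rw [this]
          exact mul_mem hx2 hy2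
        one_mem' := ⟨W.one_mem, by rw [one_mul]; exact one_mem _⟩
        inv_mem' := by
          rintro x ⟨hx, hx2⟩
          refine ⟨W.inv_mem hx, ?_⟩
          rw [← mul_inv_rev]
          exact inv_mem hx2 }
    have hPn : P.Normal := by
      refine ⟨fun w hw g => ⟨hWn.conj_mem w hw.1 g, ?_⟩⟩
      have e : g * w * g⁻¹ * (g * w * g⁻¹) = g * (w * w) * g⁻¹ := by group
      rw [e]
      exact (inferInstance : (center G).Normal).conj_mem _ hw.2 g
    have hZP : (Z : Set G) ⊆ P := by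
      intro z hz
      exact ⟨hZW hz, Subgroup.mem_center_iff.2 fun g => (hZ2 z hz g).symm⟩
    intro w hw
    rw [hW] at hw
    exact (normalClosure_le_normal hZP hw).2
  -- the abelian group `W` and its quotient `V`
  let _ : CommGroup W := { mul_comm := fun x y => Subtype.ext (hWab x x.2 y y.2) }
  obtain ⟨K, hK⟩ : ∃ K : Subgroup W, K = (center G).subgroupOf W := ⟨_, rfl⟩
  have hKmem : ∀ w : W, w ∈ K ↔ (w : G) ∈ center G := by intro w; rw [hK]; exact mem_subgroupOf
  let φ₀ : G →* MulAut W := MulAut.conjNormal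
  have hφ₀ : ∀ (g : G) (v : W), ((φ₀ g v : W) : G) = g * v * g⁻¹ := fun g v => MulAut.conjNormal_apply g v
  have hKinv : ∀ g : G, ∀ w ∈ K, φ₀ g w ∈ K := by
    intro g w hw
    rw [hKmem] at hw ⊢
    rw [hφ₀]
    exact (inferInstance : (center G).Normal).conj_mem _ hw g
  let φ : G →* MulAut (W ⧸ K) := quotHom φ₀ K hKinv
  let π : W →* W ⧸ K := QuotientGroup.mk' K
  have hπ : Function.Surjective π := QuotientGroup.mk'_surjective K
  have hφ : ∀ (g : G) (w : W), φ g (π w) = π (φ₀ g w) := fun g w => rfl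
  have hexp : ∀ v : W ⧸ K, v * v = 1 := by
    intro v
    obtain ⟨w, rfl⟩ := hπ v
    rw [← map_mul]
    refine (QuotientGroup.eq_one_iff _).2 ?_
    rw [hKmem]
    exact hW2 w w.2
  have hS3 : PLocal.SFourOffender.NoS3 φ :=
    PLocal.S4FreeNoS3.noS3_of_section h4 hWn hexp π hπ φ (fun g a => rfl)
  -- `U`
  obtain ⟨U, hU⟩ : ∃ U : Subgroup (W ⧸ K), U = (Z.subgroupOf W).map π := ⟨_, rfl⟩
  have hSU : ∀ s ∈ S, ∀ u ∈ U, φ s u = u := by
    intro s hs u hu
    rw [hU] at hu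
    obtain ⟨z, hz, rfl⟩ := hu
    rw [hφ]
    congr 1
    apply Subtype.ext
    rw [hφ₀, ← hZc z hz s hs, mul_inv_cancel_right]
  have hUoff : Unoff φ (S : Subgroup G) U := by
    refine ⟨fun a ha u hu => ?_, fun B hB _ _ b hb => ?_⟩
    · rw [hSU a ha u hu]; exact hu
    · rw [mem_cn]
      intro u hu
      exact hSU b (hB hb) u hu
  have hoff := unoff_top hexp hS3 S hUoff (by
    intro W' hUW' hW'
    have hn : ((W'.comap π).map W.subtype).Normal := by
      refine ⟨?_⟩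
      rintro _ ⟨w, hw, rfl⟩ g
      refine ⟨φ₀ g w, ?_, hφ₀ g w⟩
      exact hW' g _ hw
    have h1 : W ≤ (W'.comap π).map W.subtype := by
      conv_lhs => rw [hW]
      apply normalClosure_le_normal
      intro z hz
      refine ⟨⟨z, hZW hz⟩, hUW' ?_, rfl⟩
      rw [hU]
      exact ⟨⟨z, hZW hz⟩, hz, rfl⟩
    rw [eq_top_iff]
    intro v _
    obtain ⟨w, rfl⟩ := hπ v
    obtain ⟨w', hw', he⟩ := h1 w.2
    have : w' = w := Subtype.ext he
    rw [← this]
    exact hw')
  -- `Ω`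
  obtain ⟨Om, hOm⟩ : ∃ Om : Subgroup G, Om = omega W hWab := ⟨_, rfl⟩
  have hOmn : Om.Normal := by rw [hOm]; exact omega_normal W hWab
  have hOmmem : ∀ z, z ∈ Om ↔ z ∈ W ∧ z * z = 1 := by intro z; rw [hOm]; exact mem_omega
  have hOmW : Om ≤ W := fun z hz => ((hOmmem z).1 hz).1
  have hcomm2 : ∀ g : G, ∀ w ∈ W, g * w * g⁻¹ * w⁻¹ ∈ Om := by
    intro g w hw
    have hgw : g * w * g⁻¹ ∈ W := hWn.conj_mem w hw g
    rw [hOmmem]
    refine ⟨W.mul_mem hgw (W.inv_mem hw), ?_⟩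
    calc (g * w * g⁻¹ * w⁻¹) * (g * w * g⁻¹ * w⁻¹)
        = (g * w * g⁻¹) * (w⁻¹ * (g * w * g⁻¹)) * w⁻¹ := by group
      _ = (g * w * g⁻¹) * ((g * w * g⁻¹) * w⁻¹) * w⁻¹ := by rw [hWab _ (W.inv_mem hw) _ hgw]
      _ = g * (w * w) * g⁻¹ * (w * w)⁻¹ := by group
      _ = 1 := by
        have h1 := mem_center_iff.1 (hW2 w hw) g
        rw [h1]; group
  have hW2k : ∀ w ∈ W, ∃ k : ℕ, w ^ 2 ^ k = 1 := by
    intro w hw
    obtain ⟨k, hk⟩ := hWp ⟨w, hw⟩
    exact ⟨k, congrArg Subtype.val hk⟩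
  have hcop : ∀ m k : ℕ, Odd m → m.Coprime (2 ^ k) := fun m k hm =>
    Nat.Coprime.pow_right k (Nat.coprime_two_right.mpr hm)
  have hmemC : ∀ g : G, (∀ w ∈ W, g * w * g⁻¹ * w⁻¹ = 1) → g ∈ centralizer (W : Set G) := by
    intro g hg
    rw [mem_centralizer_iff]
    intro w hw
    have := hg w hw
    rw [mul_inv_eq_one, mul_inv_eq_iff_eq_mul] at this
    exact this.symm
  -- `N ∩ S` centralizes `W` for `N = C_G(Ω)`, `N = ker φ`
  have hcent1 : centralizer (Om : Set G) ⊓ (S : Subgroup G) ≤ centralizer (W : Set G) := by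
    rw [hW]
    refine inf_sylow_centralizes S Z hZc _ inferInstance ?_
    intro g hg m hm hgm
    rw [← hW]
    apply hmemC
    intro w hw
    have h1 := hcomm2 g w hw
    refine eq_one_of_commute rfl (mem_centralizer_iff.1 hg _ h1).symm hgm (n := 2) ?_
      (Nat.coprime_two_right.mpr hm)
    rw [pow_two]
    exact ((hOmmem _).1 h1).2
  have hkermem : ∀ g : G, g ∈ φ.ker ↔ ∀ w ∈ W, g * w * g⁻¹ * w⁻¹ ∈ center G := by
    intro g
    rw [mem_ker_quotHom]
    constructor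
    · intro h w hw
      have := h ⟨w, hw⟩
      rw [hKmem] at this
      exact this
    · intro h w
      rw [hKmem]
      exact h w w.2
  have hcent2 : φ.ker ⊓ (S : Subgroup G) ≤ centralizer (W : Set G) := by
    have key := inf_sylow_centralizes S Z hZc φ.ker inferInstance
    rw [← hW] at key
    refine key ?_
    intro g hg m hm hgm
    apply hmemC
    intro w hw
    have h1 := (hkermem g).1 hg w hw
    have h2 := hcomm2 g w hw
    refine eq_one_of_commute rfl (mem_center_iff.1 h1 g) hgm (n := 2) ?_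
      (Nat.coprime_two_right.mpr hm)
    rw [pow_two]
    exact ((hOmmem _).1 h2).2
  have hAab : ∀ a ∈ A, ∀ b ∈ A, a * b = b * a := fun a ha b hb =>
    PLocal.ThompsonJ.isElementaryAbelian_comm hAe ha hb
  have hAb : AbOn φ A ⊤ := by
    intro a ha b hb u _
    rw [← MulAut.mul_apply, ← MulAut.mul_apply, ← map_mul, ← map_mul, hAab a ha b hb]
  obtain ⟨A₀, hA₀⟩ : ∃ A₀ : Subgroup G, A₀ = A ⊓ centralizer (Om : Set G) := ⟨_, rfl⟩
  have hA₀W : A₀ ≤ centralizer (W : Set G) := by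
    intro a ha
    rw [hA₀] at ha
    exact hcent1 ⟨ha.2, hAS ha.1⟩
  have hA₀ker : A₀ = A ⊓ φ.ker := by
    apply le_antisymm
    · intro a ha
      refine ⟨by rw [hA₀] at ha; exact ha.1, ?_⟩
      change a ∈ φ.ker
      rw [hkermem]
      intro w hw
      rw [← mem_centralizer_iff.1 (hA₀W ha) w hw, mul_inv_cancel_right, mul_inv_cancel]
      exact one_mem _
    · rintro a ⟨ha1, ha2⟩
      rw [hA₀]
      exact ⟨ha1, centralizer_le hOmW (hcent2 ⟨ha2, hAS ha1⟩)⟩
  have hker : cn φ ⊤ = φ.ker := cn_top φ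
  -- the offender inequality for `Ω`
  have hA₀Om : ∀ a ∈ A₀, ∀ w ∈ Om, a * w = w * a := by
    intro a ha w hw
    exact (mem_centralizer_iff.1 (hA₀W ha) w (hOmW hw)).symm
  have hE : IsElementaryAbelian 2 (A₀ ⊔ Om) := by
    rw [PLocal.ThompsonJ.isElementaryAbelian_iff]
    have hmem : ∀ x ∈ A₀ ⊔ Om, ∃ a ∈ A₀, ∃ w ∈ Om, a * w = x := fun x hx =>
      Subgroup.mem_sup_of_normal_right.mp hx
    have hA₀A : A₀ ≤ A := by rw [hA₀]; exact inf_le_left
    refine ⟨?_, ?_⟩
    · intro x hx y hy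
      obtain ⟨a, ha, w, hw, rfl⟩ := hmem x hx
      obtain ⟨b, hb, v, hv, rfl⟩ := hmem y hy
      calc a * w * (b * v) = a * (w * b) * v := by group
        _ = a * (b * w) * v := by rw [hA₀Om b hb w hw]
        _ = (a * b) * (w * v) := by group
        _ = (b * a) * (v * w) := by
          rw [hAab a (hA₀A ha) b (hA₀A hb), hWab w (hOmW hw) v (hOmW hv)]
        _ = b * (a * v) * w := by group
        _ = b * (v * a) * w := by rw [hA₀Om a ha v hv]
        _ = b * v * (a * w) := by group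
    · intro x hx
      obtain ⟨a, ha, w, hw, rfl⟩ := hmem x hx
      have h1 : a ^ 2 = 1 := PLocal.ThompsonJ.isElementaryAbelian_pow hAe (hA₀A ha)
      have h2 : w * w = 1 := ((hOmmem _).mp hw).2
      rw [(show Commute a w from hA₀Om a ha w hw).mul_pow, h1, pow_two, h2, one_mul]
  have hoff1 : Nat.card Om ≤ (cn φ ⊤).relIndex A * Nat.card (A₀ ⊓ Om : Subgroup G) := by
    have h1 := hAmax _ hE
    have e1 : Nat.card (A₀ ⊔ Om : Subgroup G) = Nat.card Om * Om.relIndex A₀ := by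
      rw [← Subgroup.relIndex_sup_right A₀ Om]
      exact (PLocal.PConstrained.card_mul_relIndex_eq le_sup_right).symm
    have e2 : Nat.card A₀ = Nat.card (A₀ ⊓ Om : Subgroup G) * Om.relIndex A₀ := by
      rw [← Subgroup.inf_relIndex_left A₀ Om]
      exact (PLocal.PConstrained.card_mul_relIndex_eq inf_le_left).symm
    have e3 : Nat.card A = Nat.card A₀ * (cn φ ⊤).relIndex A := by
      rw [hker, ← Subgroup.inf_relIndex_left A φ.ker, ← hA₀ker]
      exact (PLocal.PConstrained.card_mul_relIndex_eq (by rw [hA₀ker]; exact inf_le_left)).symm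
    have hpos : 0 < Om.relIndex A₀ := Nat.pos_of_ne_zero (Om.subgroupOf A₀).index_ne_zero_of_finite
    rw [e1, e3, e2] at h1
    have h7 : Nat.card Om * Om.relIndex A₀ ≤
        ((cn φ ⊤).relIndex A * Nat.card (A₀ ⊓ Om : Subgroup G)) * Om.relIndex A₀ := by
      calc Nat.card Om * Om.relIndex A₀ ≤
          Nat.card (A₀ ⊓ Om : Subgroup G) * Om.relIndex A₀ * (cn φ ⊤).relIndex A := h1
        _ = _ := by ring
    exact Nat.le_of_mul_le_mul_right h7 hpos
  -- `W = Z Ω`
  have hZOm : W ≤ Z ⊔ Om := by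
    have hn : (Z ⊔ Om).Normal := by
      refine ⟨fun x hx g => ?_⟩
      obtain ⟨z, hz, w, hw, rfl⟩ := Subgroup.mem_sup_of_normal_right.mp hx
      have e : g * (z * w) * g⁻¹ = (g * z * g⁻¹ * z⁻¹) * (z * (g * w * g⁻¹)) := by group
      rw [e]
      exact mul_mem (Subgroup.mem_sup_right (hcomm2 g z (hZW hz)))
        (mul_mem (Subgroup.mem_sup_left hz) (Subgroup.mem_sup_right (hOmn.conj_mem w hw g)))
    conv_lhs => rw [hW]
    exact normalClosure_le_normal (fun z hz => Subgroup.mem_sup_left hz)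
  -- transfer to `V`
  obtain ⟨T, hT⟩ : ∃ T : Subgroup W, T = (fx φ A).comap π := ⟨_, rfl⟩
  have hTmem : ∀ w : W, w ∈ T ↔ ∀ a ∈ A, φ a (π w) = π w := by intro w; rw [hT]; exact Iff.rfl
  have hTtop : Om.subgroupOf W ⊔ T = ⊤ := by
    rw [eq_top_iff]
    rintro ⟨w, hw⟩ -
    obtain ⟨z, hz, v, hv, hzv⟩ := Subgroup.mem_sup_of_normal_right.mp (hZOm hw)
    have e : (⟨w, hw⟩ : W) = ⟨v, hOmW hv⟩ * ⟨z, hZW hz⟩ := by
      apply Subtype.ext
      change w = v * z
      rw [← hzv]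
      exact hWab z (hZW hz) v (hOmW hv)
    rw [e]
    refine Subgroup.mul_mem_sup hv ?_
    rw [hTmem]
    intro a ha
    refine hSU a (hAS ha) _ ?_
    rw [hU]
    exact ⟨⟨z, hZW hz⟩, hz, rfl⟩
  have hTidx : T.index = (fx φ A).index := by
    rw [hT]; exact index_comap_of_surjective _ hπ
  have hTle : T.index ≤ ((A₀ ⊓ Om).subgroupOf W).relIndex (Om.subgroupOf W) := by
    have h1 : T.index = T.relIndex (Om.subgroupOf W) := by
      rw [← relIndex_top_right, ← hTtop, relIndex_sup_right]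
    rw [h1]
    refine Nat.le_of_dvd ?_ (relIndex_dvd_of_le_left _ ?_)
    · exact Nat.pos_of_ne_zero (Subgroup.index_ne_zero_of_finite)
    · intro w hw
      rw [hTmem]
      intro a ha
      rw [hφ]
      congr 1
      apply Subtype.ext
      rw [hφ₀]
      have hwA : (w : G) ∈ A := by
        have : (w : G) ∈ A₀ := hw.1
        rw [hA₀] at this
        exact this.1
      rw [hAab a ha w hwA, mul_inv_cancel_right]
  have hTle2 : T.index ≤ (A₀ ⊓ Om).relIndex Om := by
    rwa [relIndex_subgroupOf hOmW] at hTle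
  have hOmcard : Nat.card (A₀ ⊓ Om : Subgroup G) * (A₀ ⊓ Om).relIndex Om = Nat.card Om :=
    PLocal.PConstrained.card_mul_relIndex_eq inf_le_right
  have hfinal : Nat.card (⊤ : Subgroup (W ⧸ K)) ≤ ms φ ⊤ A := by
    change Nat.card (⊤ : Subgroup (W ⧸ K)) ≤ (cn φ ⊤).relIndex A * Nat.card (⊤ ⊓ fx φ A : Subgroup (W ⧸ K))
    rw [top_inf_eq, Subgroup.card_top, ← (fx φ A).card_mul_index, ← hTidx, mul_comm]
    refine Nat.mul_le_mul_right _ (hTle2.trans ?_)
    have hpos : 0 < Nat.card (A₀ ⊓ Om : Subgroup G) := Nat.card_pos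
    refine Nat.le_of_mul_le_mul_left ?_ hpos
    rw [hOmcard, mul_comm (Nat.card (A₀ ⊓ Om : Subgroup G))]
    exact hoff1
  have hfin := hoff.off A hAS hAb hfinal
  rw [hker] at hfin
  have : A = A₀ := by rw [hA₀ker, inf_eq_left.2 hfin]
  rw [← hW, this]
  exact hA₀W

/-- Frattini argument for `J_e(S)`. -/
theorem frattini_thompson (S : Sylow 2 G) (D : Subgroup G) (hD : D.Normal)
    (hJ : thompsonSubgroupOf 2 (S : Subgroup G) ≤ D) (x : G) :
    ∃ d ∈ D, ∃ n ∈ normalizer (thompsonSubgroupOf 2 (S : Subgroup G) : Set G), x = d * n := by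
  have : Fact (Nat.Prime 2) := ⟨Nat.prime_two⟩
  have hfr := PLocal.ZJ.frattini_sup S D D hD (k := 0) (by rw [Subgroup.relIndex_self, pow_zero])
  have hx : x ∈ D ⊔ normalizer ((D ⊓ (S : Subgroup G) : Subgroup G) : Set G) := by rw [hfr]; exact mem_top x
  obtain ⟨d, hd, n, hn, rfl⟩ := Subgroup.mem_sup_of_normal_left.1 hx
  refine ⟨d, hd, n, ?_, rfl⟩
  obtain ⟨B, hB, hBS⟩ := PLocal.ThompsonJ.exists_max_le_sylow S
  have hBJ : B ≤ thompsonSubgroupOf 2 (S : Subgroup G) := by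
    rw [PLocal.ThompsonJ.thompsonSubgroupOf_sylow_eq S]
    exact le_sSup ⟨hB, hBS⟩
  have e : thompsonSubgroupOf 2 (D ⊓ (S : Subgroup G)) = thompsonSubgroupOf 2 (S : Subgroup G) := by
    rw [PLocal.ThompsonJ.thompsonSubgroupOf_eq_sSup hB (le_inf (hBJ.trans hJ) hBS),
      PLocal.ThompsonJ.thompsonSubgroupOf_eq_sSup hB hBS]
    congr 1
    ext A
    constructor
    · rintro ⟨h1, h2⟩
      exact ⟨h1, h2.trans inf_le_right⟩
    · rintro ⟨h1, h2⟩
      refine ⟨h1, le_inf (le_trans ?_ hJ) h2⟩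
      rw [PLocal.ThompsonJ.thompsonSubgroupOf_sylow_eq S]
      exact le_sSup ⟨h1, h2⟩
  rw [← e]
  have hn' : (D ⊓ (S : Subgroup G)).map (MulAut.conj n).toMonoidHom = D ⊓ (S : Subgroup G) := by
    ext y
    constructor
    · rintro ⟨z, hz, rfl⟩
      exact (mem_normalizer_iff.1 hn z).1 hz
    · intro hy
      refine ⟨n⁻¹ * y * n, ?_, by simp [mul_assoc]⟩
      have := (mem_normalizer_iff.1 (inv_mem hn) y).1 hy
      rwa [inv_inv] at this
  have h2 := PLocal.ThompsonJ.thompsonSubgroupOf_map_conj 2 n (D ⊓ (S : Subgroup G))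
  rw [hn'] at h2
  rw [mem_normalizer_iff]
  intro y
  constructor
  · intro hy
    rw [h2]
    exact ⟨y, hy, rfl⟩
  · intro hy
    rw [h2] at hy
    obtain ⟨z, hz, hzy⟩ := hy
    have : z = y := (MulAut.conj n).injective hzy
    rwa [← this]

/-- The inductive step. -/
theorem good_step
    (h4 : ¬ ∃ (K R : Subgroup G) (hR : (R.subgroupOf K).Normal),
      Nonempty ((K ⧸ R.subgroupOf K) ≃* Equiv.Perm (Fin 4))) (S : Sylow 2 G)
    (hc : Subgroup.centralizer (pCore 2 G : Set G) ≤ pCore 2 G)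
    (Z' Z : Subgroup G) (hZS' : Z' ≤ (S : Subgroup G)) (hZc' : ∀ z ∈ Z', ∀ s ∈ S, z * s = s * z)
    (hZS : Z ≤ (S : Subgroup G)) (hZc : ∀ z ∈ Z, ∀ s ∈ S, z * s = s * z)
    (hZ2 : ∀ z ∈ Z, z * z ∈ Z')
    (hgood : ∀ x : G, ∃ c ∈ centralizer (Z' : Set G),
      ∃ n ∈ normalizer (thompsonSubgroupOf 2 (S : Subgroup G) : Set G), x = c * n) :
    ∀ x : G, ∃ c ∈ centralizer (Z : Set G),
      ∃ n ∈ normalizer (thompsonSubgroupOf 2 (S : Subgroup G) : Set G), x = c * n := by
  have : Fact (Nat.Prime 2) := ⟨Nat.prime_two⟩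
  obtain ⟨Y, hY⟩ : ∃ Y : Subgroup G, Y = centralizer (Z' : Set G) := ⟨_, rfl⟩
  have hSY : (S : Subgroup G) ≤ Y := by
    intro s hs
    rw [hY, mem_centralizer_iff]
    intro z hz
    exact hZc' z hz s hs
  have hQn : (pCore 2 G).Normal := Lib.Cores.pCore_normal 2
  have hQS : pCore 2 G ≤ (S : Subgroup G) := Lib.Cores.pCore_le_sylow S
  have hQp : IsPGroup 2 (pCore 2 G) := Lib.Cores.pCore_isPGroup 2
  obtain ⟨B, hB, hBS⟩ := PLocal.ThompsonJ.exists_max_le_sylow S
  have hBr : B ≤ Y.subtype.range := by rw [Y.range_subtype]; exact hBS.trans hSY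
  -- the group `Y`
  have h4' : ¬ ∃ (K R : Subgroup Y) (hR : (R.subgroupOf K).Normal),
      Nonempty ((K ⧸ R.subgroupOf K) ≃* Equiv.Perm (Fin 4)) :=
    PLocal.S4FreeSection.S4Free.subgroup (G := G) h4 Y
  let SY : Sylow 2 Y := S.subtype hSY
  have hSYcoe : (SY : Subgroup Y) = (S : Subgroup G).subgroupOf Y := rfl
  have hcY : Subgroup.centralizer (pCore 2 Y : Set Y) ≤ pCore 2 Y := by
    have h1 : (pCore 2 G).subgroupOf Y ≤ pCore 2 Y :=
      Lib.Cores.le_pCore inferInstance (hQp.comap_of_injective Y.subtype Y.subtype_injective)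
    refine le_trans ?_ h1
    intro y hy
    rw [mem_subgroupOf]
    apply hc
    rw [mem_centralizer_iff]
    intro q hq
    exact congrArg Subtype.val (mem_centralizer_iff.1 hy ⟨q, hSY (hQS hq)⟩ (h1 hq))
  have key : ∀ A ∈ maxElementaryAbelianSubgroups 2 G, A ≤ (S : Subgroup G) →
      A.subgroupOf Y ≤ centralizer (normalClosure ((Z.subgroupOf Y : Subgroup Y) : Set Y) : Set Y) := by
    intro A hA hAS
    refine max_centralizes h4' SY hcY (Z.subgroupOf Y) ?_ ?_ ?_ (A.subgroupOf Y) ?_ ?_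
    · rw [hSYcoe]; exact Subgroup.comap_mono hZS
    · intro z hz s hs
      exact Subtype.ext (hZc z hz s hs)
    · intro z hz g
      apply Subtype.ext
      have h1 := hZ2 z hz
      have hg : (g : G) ∈ centralizer (Z' : Set G) := by rw [← hY]; exact g.2
      exact mem_centralizer_iff.1 hg _ h1
    · rw [← PLocal.ThompsonJ.map_mem_max_iff Y.subtype_injective hB hBr, Subgroup.subgroupOf_map_subtype,
        inf_eq_left.2 (hAS.trans hSY)]
      exact hA
    · rw [hSYcoe]; exact Subgroup.comap_mono hAS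
  have hJY : thompsonSubgroupOf 2 (SY : Subgroup Y) =
      (thompsonSubgroupOf 2 (S : Subgroup G)).subgroupOf Y := by
    have h1 := PLocal.ThompsonJ.thompsonSubgroupOf_map 2 Y.subtype_injective (SY : Subgroup Y)
    rw [hSYcoe, Subgroup.subgroupOf_map_subtype, inf_eq_left.2 hSY] at h1
    rw [hSYcoe, h1]
    exact (Subgroup.comap_map_eq_self_of_injective Y.subtype_injective _).symm
  have hJle : thompsonSubgroupOf 2 (S : Subgroup G) ≤ S := PLocal.ThompsonJ.thompsonSubgroupOf_le_self 2 _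
  have hJD : thompsonSubgroupOf 2 (SY : Subgroup Y) ≤
      centralizer (normalClosure ((Z.subgroupOf Y : Subgroup Y) : Set Y) : Set Y) := by
    rw [hJY]
    have h1 : thompsonSubgroupOf 2 (S : Subgroup G) ≤
        (centralizer (normalClosure ((Z.subgroupOf Y : Subgroup Y) : Set Y) : Set Y)).map Y.subtype := by
      rw [PLocal.ThompsonJ.thompsonSubgroupOf_sylow_eq S]
      refine sSup_le ?_
      rintro A ⟨hA, hAS⟩
      have h2 := Subgroup.map_mono (f := Y.subtype) (key A hA hAS)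
      rwa [Subgroup.subgroupOf_map_subtype, inf_eq_left.2 (hAS.trans hSY)] at h2
    have h3 := Subgroup.comap_mono (f := Y.subtype) h1
    rwa [Subgroup.comap_map_eq_self_of_injective Y.subtype_injective] at h3
  intro x
  obtain ⟨c, hc', n, hn, rfl⟩ := hgood x
  have hcY' : c ∈ Y := by rw [hY]; exact hc'
  obtain ⟨d, hd, m, hm, hdm⟩ := frattini_thompson SY _ inferInstance hJD ⟨c, hcY'⟩
  have hcdm : c = (d : G) * m := congrArg Subtype.val hdm
  refine ⟨d, ?_, (m : G) * n, mul_mem ?_ hn, by rw [hcdm, mul_assoc]⟩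
  · rw [mem_centralizer_iff]
    intro z hz
    have hzY : z ∈ Y := hSY (hZS hz)
    exact congrArg Subtype.val (mem_centralizer_iff.1 hd ⟨z, hzY⟩ (subset_normalClosure hz))
  · rw [hJY] at hm
    rw [mem_normalizer_iff]
    intro y
    constructor
    · intro hy
      exact (mem_normalizer_iff.1 hm ⟨y, hSY (hJle hy)⟩).1 hy
    · intro hy
      have hyY : y ∈ Y := by
        have h1 := Y.mul_mem (Y.mul_mem (Y.inv_mem m.2) (hSY (hJle hy))) m.2
        have e : (m : G)⁻¹ * ((m : G) * y * (m : G)⁻¹) * m = y := by group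
        rwa [e] at h1
      exact (mem_normalizer_iff.1 hm ⟨y, hyY⟩).2 hy

/-- **`G = C_G(Z(S)) N_G(J_e(S))`** -/
theorem factor
    (h4 : ¬ ∃ (K R : Subgroup G) (hR : (R.subgroupOf K).Normal),
      Nonempty ((K ⧸ R.subgroupOf K) ≃* Equiv.Perm (Fin 4))) (S : Sylow 2 G)
    (hc : Subgroup.centralizer (pCore 2 G : Set G) ≤ pCore 2 G) :
    ∀ x : G, ∃ c ∈ centralizer (((S : Subgroup G) ⊓ centralizer ((S : Subgroup G) : Set G) : Subgroup G) : Set G),
      ∃ n ∈ normalizer (thompsonSubgroupOf 2 (S : Subgroup G) : Set G), x = c * n := by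
  let Zi : ℕ → Subgroup G := fun i =>
    { carrier := {z | z ∈ S ∧ (∀ s ∈ S, z * s = s * z) ∧ z ^ 2 ^ i = 1}
      mul_mem' := by
        rintro a b ⟨ha, ha1, ha2⟩ ⟨hb, hb1, hb2⟩
        refine ⟨mul_mem ha hb, fun s hs => ?_, ?_⟩
        · rw [mul_assoc, hb1 s hs, ← mul_assoc, ha1 s hs, mul_assoc]
        · rw [(show Commute a b from ha1 b hb).mul_pow, ha2, hb2, one_mul]
      one_mem' := ⟨one_mem S, fun s _ => by rw [one_mul, mul_one], one_pow _⟩
      inv_mem' := by
        rintro a ⟨ha, ha1, ha2⟩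
        refine ⟨inv_mem ha, fun s hs => ((show Commute a s from ha1 s hs).inv_left).eq, ?_⟩
        rw [inv_pow, ha2, inv_one] }
  have hZi : ∀ i z, z ∈ Zi i ↔ z ∈ S ∧ (∀ s ∈ S, z * s = s * z) ∧ z ^ 2 ^ i = 1 := fun _ _ => Iff.rfl
  have key : ∀ i, ∀ x : G, ∃ c ∈ centralizer (Zi i : Set G),
      ∃ n ∈ normalizer (thompsonSubgroupOf 2 (S : Subgroup G) : Set G), x = c * n := by
    intro i
    induction i with
    | zero =>
      intro x
      refine ⟨x, ?_, 1, one_mem _, (mul_one x).symm⟩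
      rw [mem_centralizer_iff]
      intro z hz
      have h1 := ((hZi 0 z).1 hz).2.2
      rw [pow_zero, pow_one] at h1
      rw [h1, one_mul, mul_one]
    | succ i ih =>
      refine good_step h4 S hc (Zi i) (Zi (i + 1)) (fun z hz => hz.1) (fun z hz => hz.2.1)
        (fun z hz => hz.1) (fun z hz => hz.2.1) ?_ ih
      intro z hz
      refine ⟨mul_mem hz.1 hz.1, fun s hs => ?_, ?_⟩
      · rw [mul_assoc, hz.2.1 s hs, ← mul_assoc, hz.2.1 s hs, mul_assoc]
      · rw [← pow_two, ← pow_mul, ← pow_succ']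
        exact hz.2.2
  obtain ⟨k, hk⟩ := IsPGroup.iff_card.1 S.isPGroup'
  intro x
  obtain ⟨c, hc', n, hn, rfl⟩ := key k x
  refine ⟨c, ?_, n, hn, rfl⟩
  refine centralizer_le ?_ hc'
  intro z hz
  refine ⟨hz.1, fun s hs => (mem_centralizer_iff.1 hz.2 s hs).symm, ?_⟩
  have h1 : (⟨z, hz.1⟩ : (S : Subgroup G)) ^ Nat.card (S : Subgroup G) = 1 := pow_card_eq_one'
  rw [hk] at h1
  exact congrArg Subtype.val h1

end Cfsg.Agent.H40.SFourFactor
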