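import Mathlib
import Cfsg.Prelude.Def_PLocal
import Cfsg.Prelude.Def_Transfer
import Cfsg.Prelude.Def_LocalEven
import Cfsg.Prelude.Def_ConjugacyFunctors
import Cfsg.Agent.PLocal.ThompsonJ
import Cfsg.Agent.H40.QdNoControl
import Cfsg.Agent.H40.QdTwo

/-!
The centre and the elementary abelian Thompson subgroup `J_e` as isomorphism-invariant functors for the prime 2
(`charP_zf`, `charP_jf`), and: if `{Z, J_e}` controls strong fusion in every section of `G` then `S₄` is not
involved in `G` (`not_involves_of_family`).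
-/

set_option autoImplicit false
universe u
open Cfsg

namespace Cfsg.Agent.H40.ZJe

open Cfsg.Agent

/-- the centre as a functor -/
def zf (Q : Type u) [Group Q] : Subgroup Q := Subgroup.center Q

/-- the elementary abelian Thompson subgroup as a functor -/
def jf (Q : Type u) [Group Q] : Subgroup Q := thompsonSubgroup 2 Q

theorem induced_zf {X : Type u} [Group X] : inducedFunctor (G := X) @zf.{u} =
    fun P : Subgroup X => P ⊓ Subgroup.centralizer ((P : Subgroup X) : Set X) := by
  funext P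
  ext x
  change x ∈ (Subgroup.center ↥P).map P.subtype ↔ _
  rw [Subgroup.mem_map, Subgroup.mem_inf, Subgroup.mem_centralizer_iff]
  constructor
  · rintro ⟨y, hy, rfl⟩
    refine ⟨y.2, fun h hh => ?_⟩
    exact congrArg Subtype.val (Subgroup.mem_center_iff.mp hy ⟨h, hh⟩)
  · rintro ⟨hx, hc⟩
    exact ⟨⟨x, hx⟩, Subgroup.mem_center_iff.mpr fun h => Subtype.ext (hc h h.2), rfl⟩

theorem induced_jf {X : Type u} [Group X] : inducedFunctor (G := X) @jf.{u} =
    fun P : Subgroup X => Cfsg.thompsonSubgroupOf 2 P := rfl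

theorem charP_zf : IsCharPFunctor.{u} 2 @zf.{u} := by
  have : Fact (Nat.Prime 2) := ⟨Nat.prime_two⟩
  refine ⟨?_, ?_⟩
  · intro Q _ _ hQ hnt h0
    have := hQ.center_nontrivial
    exact (Subgroup.nontrivial_iff_ne_bot _).mp this h0
  · intro Q R _ _ _ _ φ
    ext x
    change x ∈ (Subgroup.center Q).map φ.toMonoidHom ↔ x ∈ Subgroup.center R
    rw [Subgroup.mem_map, Subgroup.mem_center_iff]
    constructor
    · rintro ⟨y, hy, rfl⟩ g
      obtain ⟨h, rfl⟩ := φ.surjective g
      change φ h * φ y = φ y * φ h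
      rw [← map_mul, ← map_mul, Subgroup.mem_center_iff.mp hy h]
    · intro hx
      refine ⟨φ.symm x, Subgroup.mem_center_iff.mpr fun h => φ.injective ?_, φ.apply_symm_apply x⟩
      rw [map_mul, map_mul, φ.apply_symm_apply]
      exact hx (φ h)

theorem charP_jf : IsCharPFunctor.{u} 2 @jf.{u} := by
  have : Fact (Nat.Prime 2) := ⟨Nat.prime_two⟩
  refine ⟨?_, ?_⟩
  · intro Q _ _ hQ hnt
    refine PLocal.ThompsonJ.thompsonSubgroup_ne_bot ?_
    obtain ⟨n, hn⟩ := IsPGroup.iff_card.mp hQ
    rw [hn]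
    have : n ≠ 0 := by
      rintro rfl
      rw [pow_zero] at hn
      exact absurd (Finite.one_lt_card_iff_nontrivial.mpr hnt) (by omega)
    exact dvd_pow_self 2 this
  · intro Q R _ _ _ _ φ
    exact PLocal.ThompsonJ.map_mulEquiv_thompsonSubgroup 2 φ

/-- **`{Z, J_e}` does not control strong fusion in `S₄`.** -/
theorem not_family_perm {X : Type u} [Group X] [Finite X] (e : X ≃* Equiv.Perm (Fin 4)) :
    ¬ FamilyControlsStrongFusionIn 2 ({fun P : Subgroup X => P ⊓ Subgroup.centralizer ((P : Subgroup X) : Set X),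
      fun P : Subgroup X => Cfsg.thompsonSubgroupOf 2 P} : Set (Subgroup X → Subgroup X)) ⊤ := by
  obtain ⟨f⟩ := H40.QdTwo.qd_two
  have : Fact (Nat.Prime 2) := ⟨Nat.prime_two⟩
  have h := H40.QdNoControl.not_family_charP (p := 2) (e.trans f.symm) {@zf.{u}, @jf.{u}} (by
    rintro W (rfl | rfl)
    · exact charP_zf
    · exact charP_jf)
  rw [Set.image_pair, induced_zf, induced_jf] at h
  exact h

/-- **Easy direction of S1999.** -/
theorem not_involves_of_family {G : Type u} [Group G] [Finite G]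
    (h : ∀ (K R : Subgroup G) [hR : (R.subgroupOf K).Normal], Cfsg.FamilyControlsStrongFusionIn 2
      ({fun P : Subgroup (↥K ⧸ R.subgroupOf K) =>
          P ⊓ Subgroup.centralizer ((P : Subgroup (↥K ⧸ R.subgroupOf K)) : Set (↥K ⧸ R.subgroupOf K)),
        fun P : Subgroup (↥K ⧸ R.subgroupOf K) => Cfsg.thompsonSubgroupOf 2 P} :
        Set (Subgroup (↥K ⧸ R.subgroupOf K) → Subgroup (↥K ⧸ R.subgroupOf K))) ⊤) :
    ¬ Cfsg.Involves (Equiv.Perm (Fin 4)) G := by
  rintro ⟨K, R, hR, ⟨e⟩⟩
  exact not_family_perm e (h K R)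

end Cfsg.Agent.H40.ZJe
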